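import Cfsg.Agent.Lib.Majorana.Basic

/-! The Norton-Sakuma computation for two Majorana axes. -/

set_option autoImplicit false
open Cfsg Cfsg.Axial

namespace H95.Maj
variable {V : Type*} [AddCommGroup V] [Module ℝ V] {mul : V →ₗ[ℝ] V →ₗ[ℝ] V}
  {B : LinearMap.BilinForm ℝ V}

theorem step (hV : IsMajoranaAmbient mul B) {t : V ≃ₗ[ℝ] V} {a0 a1 a2 s1 s20 s21 : V} {l m : ℝ}
    (A : Ax mul B t a0) (h11 : mul a1 a1 = a1)
    (h01 : mul a0 a1 = s1 + (1 / 32 : ℝ) • (a0 + a1))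
    (h02 : mul a0 a2 = s20 + (1 / 32 : ℝ) • (a0 + a2))
    (h1m : mul a1 (t a1) = s21 + (1 / 32 : ℝ) • (a1 + t a1))
    (h1s : mul a1 s1 = (7 / 32 : ℝ) • s1 + (3 / 4 * l - 25 / 1024) • a1 + (7 / 2048 : ℝ) • (a0 + a2))
    (b01 : B a0 a1 = l) (b02 : B a0 a2 = m) (b0s : B a0 s21 = l - (1 + l) / 32 + (m - l) / 32) :
    mul a0 s21 = (1 / 6 * l - 19 / 3072) • (a1 + t a1) + (7 / 6144 : ℝ) • (a2 + t a2) +
      (-32 / 3 * l ^ 2 + 5 / 3 * l - 1 / 24 * m - 127 / 3072) • a0 + (32 / 3 * l - 19 / 48) • s1 +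
      (7 / 96 : ℝ) • s20 ∧
    mul s1 s1 = (49 / 768 * l - 245 / 196608) • (a1 + t a1) + (49 / 196608 : ℝ) • (a2 + t a2) +
      (7 / 6 * l ^ 2 - 7 / 384 * l + 7 / 1536 * m - 7 / 98304) • a0 + (-5 / 12 * l - 13 / 1536) • s1 +
      (-7 / 1536 : ℝ) • s20 + (7 / 2048 : ℝ) • s21 := by
  have hc := hV.1
  have hα := A.alpha h01
  have hβ := A.beta h01
  have h0s := A.mul_sigma h01
  have h0s2 := A.mul_sigma h02
  have h0m := A.sigma_map h01
  have h0m2 := A.sigma_map h02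
  have hms := congrArg t h1s
  have hmm := congrArg t h11
  have b0m := A.B_map a1
  have b0m2 := A.B_map a2
  have b0s1 := congrArg (B a0) h01
  have b0s20 := congrArg (B a0) h02
  rw [hV.2.2.2.1, A.idem] at b0s1 b0s20
  simp only [map_add, map_smul, A.norm, b01, b02, smul_eq_mul] at b0s1 b0s20
  rw [A.map_mul] at hmm
  simp only [A.map_mul, map_add, map_smul, A.map_sigma h01, A.fix] at hms
  rw [b01] at hα hβ h0s b0m
  rw [b02] at h0s2 b0m2
  have f1 := A.f00 _ _ hα hα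
  have f2 := A.f04 _ _ hα hβ
  have f3 := A.f44 _ _ hβ hβ
  generalize t a1 = am at *
  generalize t a2 = am2 at *
  generalize B a0 (mul ((4 : ℝ) • s1 - (4 * l - 1 / 8) • a0 + (1 / 16 : ℝ) • (a1 + am))
    ((4 : ℝ) • s1 - (4 * l - 1 / 8) • a0 + (1 / 16 : ℝ) • (a1 + am))) = k at f3
  simp only [map_add, map_sub, map_smul, LinearMap.add_apply, LinearMap.sub_apply,
    LinearMap.smul_apply, hc s1 a0, hc s1 a1, hc s1 am, hc a1 a0, hc am a0, hc am a1, A.idem, h11, hmm,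
    h01, h0m, h1m, h0s, h1s, hms, h02, h0m2] at f1 f2 f3
  have e1 : mul a0 s21 = (1 / 6 * l - 19 / 3072) • (a1 + am) + (7 / 6144 : ℝ) • (a2 + am2) +
      (-40 / 3 * l ^ 2 + 13 / 3 * l - 85 / 1024 - 8 / 3 * k) • a0 + (32 / 3 * l - 19 / 48) • s1 +
      (7 / 96 : ℝ) • s20 := by
    linear_combination (norm := module) (8 / 3 : ℝ) • f1 - (8 / 3 : ℝ) • f3
  have e2 := congrArg (B a0) e1
  rw [hV.2.2.2.1, A.idem] at e2
  simp only [map_add, map_smul, A.norm, b01, b02, b0m, b0m2, b0s, smul_eq_mul] at e2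
  have hk : -40 / 3 * l ^ 2 + 13 / 3 * l - 85 / 1024 - 8 / 3 * k =
      -32 / 3 * l ^ 2 + 5 / 3 * l - 1 / 24 * m - 127 / 3072 := by
    linear_combination (-1) * e2 + (32 / 3 * l - 19 / 48) * b0s1 + 7 / 96 * b0s20
  rw [hk] at e1
  refine ⟨e1, ?_⟩
  rw [e1] at f1 f2
  linear_combination (norm := module) (1 / 4 : ℝ) • f1 + (1 / 4 : ℝ) • f2

theorem cases_of_poly {l m : ℝ}
    (p1 : 2097152 * l ^ 4 - 2326528 * l ^ 3 + 40960 * l ^ 2 * m + 184320 * l ^ 2 + 8896 * l * m -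
      4800 * l + 128 * m ^ 2 - 167 * m + 39 = 0)
    (p2 : 536870912 * l ^ 5 - 605028352 * l ^ 4 + 26214400 * l ^ 3 * m + 44138496 * l ^ 3 -
      1593344 * l ^ 2 * m - 860160 * l ^ 2 + 94208 * l * m ^ 2 + 165856 * l * m - 2016 * l +
      2784 * m ^ 2 - 2901 * m + 117 = 0) :
    m = 1 ∨ (l = 13 / 256 ∧ m = 13 / 256) ∨ (l = 1 / 64 ∧ m = 1 / 64) ∨ (l = 1 / 32 ∧ m = 0) ∨
      (l = 1 / 64 ∧ m = 1 / 8) ∨ (l = 3 / 128 ∧ m = 3 / 128) ∨ (l = 5 / 256 ∧ m = 13 / 256) := by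
  have q : (-503316480 * l ^ 3 - 1156055040 * l ^ 2 + 12195840 * l + 93600) * m +
      (-128849018880 * l ^ 5 + 135895449600 * l ^ 4 - 5237637120 * l ^ 3 - 171048960 * l ^ 2 +
        9431040 * l - 93600) = 0 := by
    linear_combination 128 * p2 - (94208 * l + 2784) * p1
  have R : l * (64 * l - 1) ^ 2 * (256 * l - 5) * (128 * l - 3) * (32 * l - 1) * (256 * l - 13) *
      (8 * l - 1) * (l - 1) = 0 := by
    linear_combination (-1 / 739875225600 : ℝ) *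
      ((-503316480 * l ^ 3 - 1156055040 * l ^ 2 + 12195840 * l + 93600) ^ 2 * p1 -
      ((-4123168604160)*l^5 + (-69224135393280)*l^4 + (-64424509440)*l^3*m + (-9030252625920)*l^3 +
        (-147975045120)*l^2*m + (327283507200)*l^2 + (1561067520)*l*m + (-2411212800)*l +
        (11980800)*m + (-3650400)) * q)
  simp only [mul_eq_zero, pow_eq_zero_iff (two_ne_zero)] at R
  rcases R with ((((((h | h) | h) | h) | h) | h) | h) | h
  · subst h; left; linarith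
  · obtain rfl : l = 1 / 64 := by linarith
    have : (m - 1 / 64) * (m - 1 / 8) = 0 := by linear_combination (1 / 128) * p1
    rcases mul_eq_zero.1 this with e | e
    · exact Or.inr (Or.inr (Or.inl ⟨rfl, by linarith⟩))
    · exact Or.inr (Or.inr (Or.inr (Or.inr (Or.inl ⟨rfl, by linarith⟩))))
  · obtain rfl : l = 5 / 256 := by linarith
    exact Or.inr (Or.inr (Or.inr (Or.inr (Or.inr (Or.inr ⟨rfl, by linarith⟩)))))
  · obtain rfl : l = 3 / 128 := by linarith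
    exact Or.inr (Or.inr (Or.inr (Or.inr (Or.inr (Or.inl ⟨rfl, by linarith⟩)))))
  · obtain rfl : l = 1 / 32 := by linarith
    exact Or.inr (Or.inr (Or.inr (Or.inl ⟨rfl, by linarith⟩)))
  · obtain rfl : l = 13 / 256 := by linarith
    exact Or.inr (Or.inl ⟨rfl, by linarith⟩)
  · obtain rfl : l = 1 / 8 := by linarith
    left; linarith
  · obtain rfl : l = 1 := by linarith
    left; linarith

theorem eq_of_B_one (hV : IsMajoranaAmbient mul B) {u v : V} (hu : B u u = 1) (hv : B v v = 1)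
    (h : B u v = 1) : u = v := by
  by_contra hne
  have := hV.2.2.1 _ (sub_ne_zero.2 hne)
  simp only [map_sub, LinearMap.sub_apply, hu, hv, h, hV.2.1 v u] at this
  norm_num at this

set_option maxHeartbeats 1600000 in
/-- scalar part of Sakuma's theorem. -/
theorem sakuma_scalar (hV : IsMajoranaAmbient mul B) {t0 t1 : V ≃ₗ[ℝ] V} {a0 a1 : V}
    (A0 : Ax mul B t0 a0) (A1 : Ax mul B t1 a1) :
    B a0 (t1 a0) = 1 ∨ B a0 (t1 (t0 a1)) = 1 ∨ B (t0 a1) (t1 (t0 a1)) = 1 ∨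
      B (t0 (t1 a0)) (t1 (t0 a1)) = 1 ∨ B (t0 (t1 (t0 a1))) (t1 (t0 a1)) = 1 := by
  have hc := hV.1
  have hs := hV.2.1
  have ha := hV.2.2.2.1
  obtain ⟨s1, h01⟩ : ∃ s, mul a0 a1 = s + (1 / 32 : ℝ) • (a0 + a1) :=
    ⟨mul a0 a1 - (1 / 32 : ℝ) • (a0 + a1), by module⟩
  obtain ⟨s20, h02⟩ : ∃ s, mul a0 (t1 a0) = s + (1 / 32 : ℝ) • (a0 + t1 a0) :=
    ⟨mul a0 (t1 a0) - (1 / 32 : ℝ) • (a0 + t1 a0), by module⟩
  obtain ⟨s21, h1m⟩ : ∃ s, mul a1 (t0 a1) = s + (1 / 32 : ℝ) • (a1 + t0 a1) :=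
    ⟨mul a1 (t0 a1) - (1 / 32 : ℝ) • (a1 + t0 a1), by module⟩
  have h10 : mul a1 a0 = s1 + (1 / 32 : ℝ) • (a1 + a0) := by rw [hc a1 a0, h01, add_comm a0 a1]
  have h0s := A0.mul_sigma h01
  have h1s := A1.mul_sigma h10
  have h0s2 := A0.mul_sigma h02
  have h1s2 := A1.mul_sigma h1m
  have h0m := A0.sigma_map h01
  have h0m2 := A0.sigma_map h02
  have h12 := A1.sigma_map h10
  have t0s1 := A0.map_sigma h01
  have t1s1 := A1.map_sigma h10
  have t0s20 := A0.map_sigma h02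
  have t1s21 := A1.map_sigma h1m
  have t1s20 : t1 s20 = s20 := by
    have h := congrArg t1 h02
    rw [A1.map_mul, A1.invol, hc, h02, map_add, map_smul, map_add, A1.invol] at h
    linear_combination (norm := module) -h
  have t0s21 : t0 s21 = s21 := by
    have h := congrArg t0 h1m
    rw [A0.map_mul, A0.invol, hc, h1m, map_add, map_smul, map_add, A0.invol] at h
    linear_combination (norm := module) -h
  obtain ⟨l, b01⟩ : ∃ l, B a0 a1 = l := ⟨_, rfl⟩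
  obtain ⟨m, b02⟩ : ∃ m, B a0 (t1 a0) = m := ⟨_, rfl⟩
  have b10 : B a1 a0 = l := by rw [hs, b01]
  have b0m : B a0 (t0 a1) = l := by rw [A0.B_map, b01]
  have b12 : B a1 (t1 a0) = l := by rw [A1.B_map, b10]
  have b0s1 : B a0 s1 = l - (1 + l) / 32 := by
    have h := congrArg (B a0) h01
    rw [ha, A0.idem] at h
    simp only [map_add, map_smul, A0.norm, b01, smul_eq_mul] at h
    linarith
  have b1s1 : B a1 s1 = l - (1 + l) / 32 := by
    have h := congrArg (B a1) h10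
    rw [ha, A1.idem] at h
    simp only [map_add, map_smul, A1.norm, b10, smul_eq_mul] at h
    linarith
  rw [b01] at h0s
  rw [b10] at h1s
  have b1m : B a1 (t0 a1) = m := by
    have h : B a1 (mul a0 s1) = B a0 (mul a1 s1) := by rw [ha, ha, hc a1 a0]
    rw [h0s, h1s] at h
    simp only [map_add, map_smul, A0.norm, A1.norm, b10, b01, b02, b0s1, b1s1, smul_eq_mul] at h
    linarith
  rw [b02] at h0s2
  rw [b1m] at h1s2
  have b0s20 : B a0 s20 = m - (1 + m) / 32 := by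
    have h := congrArg (B a0) h02
    rw [ha, A0.idem] at h
    simp only [map_add, map_smul, A0.norm, b02, smul_eq_mul] at h
    linarith
  have b1s21 : B a1 s21 = m - (1 + m) / 32 := by
    have h := congrArg (B a1) h1m
    rw [ha, A1.idem] at h
    simp only [map_add, map_smul, A1.norm, b1m, smul_eq_mul] at h
    linarith
  have inv0 : ∀ {s : V}, t0 s = s → ∀ v, B (t0 v) s = B v s := fun h v => by
    conv_lhs => rw [← h]
    exact A0.map_B _ _
  have inv1 : ∀ {s : V}, t1 s = s → ∀ v, B (t1 v) s = B v s := fun h v => by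
    conv_lhs => rw [← h]
    exact A1.map_B _ _
  have b0s21 : B a0 s21 = l - (1 + l) / 32 + (m - l) / 32 := by
    have h := congrArg (B a0) h1m
    rw [ha, hs, h01] at h
    simp only [map_add, map_smul, inv0 t0s1, b1s1, b01, b0m, hs (t0 a1) a0, hs (t0 a1) a1, b1m,
      smul_eq_mul] at h
    linarith
  have b1s20 : B a1 s20 = l - (1 + l) / 32 + (m - l) / 32 := by
    have h := congrArg (B a1) h02
    rw [ha, hs, h10] at h
    simp only [map_add, map_smul, inv1 t1s1, b0s1, b10, b12, hs (t1 a0) a0, hs (t1 a0) a1, b02,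
      smul_eq_mul] at h
    linarith
  obtain ⟨e0, q0⟩ := step hV A0 A1.idem h01 h02 h1m h1s b01 b02 b0s21
  obtain ⟨e1, q1⟩ := step hV A1 A0.idem h10 h1m h02 h0s b10 b1m b1s20
  have rel : t1 (t0 a1) = t0 (t1 a0) + (256 * l - 6) • (t0 a1 - t1 a0) +
      (32768 / 7 * l ^ 2 - 2304 / 7 * l + 128 / 7 * m + 33 / 7) • (a0 - a1) + (32 : ℝ) • (s21 - s20) := by
    linear_combination (norm := module) (196608 / 49 : ℝ) • q0 - (196608 / 49 : ℝ) • q1
  -- moving automorphisms across the form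
  have mv0 : ∀ u v, B (t0 u) v = B u (t0 v) := fun u v => by rw [← A0.map_B u, A0.invol]
  have mv1 : ∀ u v, B (t1 u) v = B u (t1 v) := fun u v => by rw [← A1.map_B u, A1.invol]
  obtain ⟨L3, b03⟩ : ∃ x, B a0 (t1 (t0 a1)) = x := ⟨_, rfl⟩
  obtain ⟨L4, bm3⟩ : ∃ x, B (t0 a1) (t1 (t0 a1)) = x := ⟨_, rfl⟩
  obtain ⟨L5, bm23⟩ : ∃ x, B (t0 (t1 a0)) (t1 (t0 a1)) = x := ⟨_, rfl⟩
  obtain ⟨L6, bm33⟩ : ∃ x, B (t0 (t1 (t0 a1))) (t1 (t0 a1)) = x := ⟨_, rfl⟩
  have bm2 : B (t0 a1) (t1 a0) = L3 := by rw [hs, mv1, b03]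
  have bm21 : B (t0 (t1 a0)) a1 = L3 := by rw [mv0, mv1, b03]
  have b32 : B (t1 (t0 a1)) (t1 a0) = l := by rw [A1.map_B, hs, b0m]
  have b31 : B (t1 (t0 a1)) a1 = m := by rw [hs, A1.B_map, b1m]
  have h3 := congrArg (B a0) rel
  have h4 := congrArg (B (t0 a1)) rel
  have h5 := congrArg (B (t0 (t1 a0))) rel
  have h6 := congrArg (B (t0 (t1 (t0 a1)))) rel
  have h7 := congrArg (B s21) rel
  rw [b03] at h3
  rw [bm3] at h4
  rw [bm23] at h5
  rw [bm33] at h6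
  simp only [map_add, map_sub, map_smul, smul_eq_mul, A0.B_map, b02, b01, A0.norm, b0s21, b0s20] at h3
  simp only [map_add, map_sub, map_smul, smul_eq_mul, A0.map_B, b12, A1.norm, bm2, inv0 A0.fix, b10,
    hs (t0 a1) a1, b1m, inv0 t0s21, inv0 t0s20, b1s21, b1s20] at h4
  have L4' : B (t0 (t1 a0)) (t1 a0) = L4 := by
    have h := congrArg (B (t1 a0)) rel
    simp only [map_add, map_sub, map_smul, smul_eq_mul, A1.map_B, b0m, A0.norm, hs (t1 a0) (t0 a1), bm2,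
      hs (t1 a0) a0, b02, hs (t1 a0) a1, b12, inv1 t1s21, inv1 t1s20, b0s21, b0s20,
      hs (t1 a0) (t0 (t1 a0))] at h
    linarith
  simp only [map_add, map_sub, map_smul, smul_eq_mul, A0.map_B, A1.map_B, A0.norm, L4', bm21,
    hs (t1 a0) a1, b12, inv0 A0.fix, hs (t1 a0) a0, b02, inv0 t0s21, inv0 t0s20, inv1 t1s21, inv1 t1s20,
    b0s21, b0s20] at h5
  have bm32 : B (t0 (t1 (t0 a1))) (t1 a0) = L5 := by rw [mv0, hs, bm23]
  have bm31 : B (t0 (t1 (t0 a1))) a1 = L4 := by rw [mv0, hs, bm3]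
  simp only [map_add, map_sub, map_smul, smul_eq_mul, A0.map_B, b32, b31, bm32, bm31, inv0 A0.fix,
    hs (t1 (t0 a1)) a0, b03, inv0 t0s21, inv0 t0s20, inv1 t1s21, inv1 t1s20, b1s21, b1s20] at h6
  -- first equation
  have g1 := congrArg (B s21) h1m
  have g2 := congrArg (B s20) h1m
  rw [ha, hc s21 a1, h1s2, hs] at g1
  rw [ha, hc s20 a1, e1, hs] at g2
  simp only [map_add, map_sub, map_smul, smul_eq_mul, A0.map_B, A1.norm, bm3, bm2, inv0 A0.fix, b10,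
    hs (t0 a1) a1, b1m, hs s21 a1, hs s20 a1, hs s21 a0, hs s21 (t0 _), hs s20 (t0 _), hs s21 (t1 _),
    hs s20 s21, inv0 t0s21, inv0 t0s20, inv1 t1s21, inv0 t0s1, b1s1, b1s21, b1s20, b0s21] at g1 g2 h7
  -- second equation
  have g3 := congrArg (B (t1 (t0 a1))) (congrArg (mul a0) rel)
  have i3 : mul (t1 (t0 a1)) (t1 (t0 a1)) = t1 (t0 a1) := by rw [← A1.map_mul, ← A0.map_mul, A1.idem]
  rw [hc a0 (t1 (t0 a1)), ha, i3] at g3
  simp only [map_add, map_sub, map_smul, smul_eq_mul, h0m2, h0m, h02, h01, A0.idem, e0, h0s2,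
    hs (t1 (t0 a1)) a0, b03, hs (t1 (t0 a1)) (t0 _), bm3, bm23, b32, b31, inv1 t1s1, inv0 t0s1, b1s1,
    inv1 t1s20, inv0 t0s20, b1s20] at g3
  have p1 : 2097152 * l ^ 4 - 2326528 * l ^ 3 + 40960 * l ^ 2 * m + 184320 * l ^ 2 + 8896 * l * m -
      4800 * l + 128 * m ^ 2 - 167 * m + 39 = 0 := by
    rw [h4, h3] at g1 g2
    linarith
  have p2 : 536870912 * l ^ 5 - 605028352 * l ^ 4 + 26214400 * l ^ 3 * m + 44138496 * l ^ 3 -
      1593344 * l ^ 2 * m - 860160 * l ^ 2 + 94208 * l * m ^ 2 + 165856 * l * m - 2016 * l +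
      2784 * m ^ 2 - 2901 * m + 117 = 0 := by
    rw [h5, h4, h3] at g3
    linarith
  rw [b02, b03, bm3, bm23, bm33, h6, h5, h4, h3]
  rcases cases_of_poly p1 p2 with h | ⟨rfl, rfl⟩ | ⟨rfl, rfl⟩ | ⟨rfl, rfl⟩ | ⟨rfl, rfl⟩ | ⟨rfl, rfl⟩ |
    ⟨rfl, rfl⟩
  · exact Or.inl h
  all_goals norm_num

theorem sakuma (hV : IsMajoranaAmbient mul B) {t0 t1 : V ≃ₗ[ℝ] V} {a0 a1 : V}
    (h0 : IsMajoranaPair mul B t0 a0) (h1 : IsMajoranaPair mul B t1 a1) (n0 : B a0 a0 = 1)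
    (n1 : B a1 a1 = 1) : ∃ n : ℕ, 1 ≤ n ∧ n ≤ 6 ∧ (t0 * t1) ^ n = 1 := by
  have A0 := Ax_of hV h0 n0
  have A1 := Ax_of hV h1 n1
  have i0 : t0⁻¹ = t0 := inv_eq_of_mul_eq_one_right A0.mul_self
  have i1 : t1⁻¹ = t1 := inv_eq_of_mul_eq_one_right A1.mul_self
  have c0 : ∀ {t a}, IsMajoranaPair mul B t a → IsMajoranaPair mul B (t0 * t * t0) (t0 a) :=
    fun h => by simpa only [i0] using pair_conj h t0 A0.map_mul A0.map_B
  have c1 : ∀ {t a}, IsMajoranaPair mul B t a → IsMajoranaPair mul B (t1 * t * t1) (t1 a) :=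
    fun h => by simpa only [i1] using pair_conj h t1 A1.map_mul A1.map_B
  have key : ∀ {t t' a a'}, IsMajoranaPair mul B t a → IsMajoranaPair mul B t' a' → B a a = 1 →
      B a' a' = 1 → B a a' = 1 → t * t' = 1 := by
    intro t t' a a' h h' n n' e
    obtain rfl := eq_of_B_one hV n n' e
    rw [← (Ax_of hV h n).unique (Ax_of hV h' n)]
    exact (Ax_of hV h n).mul_self
  rcases sakuma_scalar hV A0 A1 with h | h | h | h | h
  · refine ⟨2, by norm_num, by norm_num, ?_⟩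
    rw [← key h0 (c1 h0) n0 (by rw [A1.map_B, n0]) h]
    simp only [pow_succ, pow_zero, one_mul, mul_assoc]
  · refine ⟨3, by norm_num, by norm_num, ?_⟩
    rw [← key h0 (c1 (c0 h1)) n0 (by rw [A1.map_B, A0.map_B, n1]) h]
    simp only [pow_succ, pow_zero, one_mul, mul_assoc]
  · refine ⟨4, by norm_num, by norm_num, ?_⟩
    rw [← key (c0 h1) (c1 (c0 h1)) (by rw [A0.map_B, n1]) (by rw [A1.map_B, A0.map_B, n1]) h]
    simp only [pow_succ, pow_zero, one_mul, mul_assoc]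
  · refine ⟨5, by norm_num, by norm_num, ?_⟩
    rw [← key (c0 (c1 h0)) (c1 (c0 h1)) (by rw [A0.map_B, A1.map_B, n0])
      (by rw [A1.map_B, A0.map_B, n1]) h]
    simp only [pow_succ, pow_zero, one_mul, mul_assoc]
  · refine ⟨6, by norm_num, by norm_num, ?_⟩
    rw [← key (c0 (c1 (c0 h1))) (c1 (c0 h1)) (by rw [A0.map_B, A1.map_B, A0.map_B, n1])
      (by rw [A1.map_B, A0.map_B, n1]) h]
    simp only [pow_succ, pow_zero, one_mul, mul_assoc]

end H95.Maj
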